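import Cfsg.Agent.Clifford.ScalarIndex
import Cfsg.Agent.CharBasics.Extra
import Cfsg.Agent.CharBasics.Central

/-!
Primitive linear groups of degree two: the index of the centre.
-/

set_option autoImplicit false
set_option linter.unusedSectionVars false
set_option linter.style.haveILetI false

namespace CfsgLib.LinearTwo

open Cfsg CfsgLib.CharBasics
open scoped Classical

abbrev M2 : Type := Matrix (Fin 2) (Fin 2) ℂ

/-- The commutant of a non-scalar matrix of size two. -/
theorem exists_affine {M X : M2} (hM : ∀ c : ℂ, M ≠ c • 1) (h : X * M = M * X) : ∃ a b : ℂ, X = a • M + b • 1 := by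
  have e : ∀ i j, (X * M) i j = (M * X) i j := fun i j => by rw [h]
  simp only [Matrix.mul_apply, Fin.sum_univ_two] at e
  have e00 := e 0 0
  have e01 := e 0 1
  have e10 := e 1 0
  by_cases h01 : M 0 1 = 0
  · by_cases h10 : M 1 0 = 0
    · have hd : M 0 0 - M 1 1 ≠ 0 := by
        intro hd
        apply hM (M 0 0)
        ext i j
        fin_cases i <;> fin_cases j <;> simp [h01, h10, sub_eq_zero.1 hd]
      have hx01 : X 0 1 = 0 := by
        have : X 0 1 * (M 0 0 - M 1 1) = 0 := by rw [h01] at e01; linear_combination -e01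
        exact (mul_eq_zero.1 this).resolve_right hd
      have hx10 : X 1 0 = 0 := by
        have : X 1 0 * (M 0 0 - M 1 1) = 0 := by rw [h10] at e10; linear_combination e10
        exact (mul_eq_zero.1 this).resolve_right hd
      refine ⟨(X 0 0 - X 1 1) / (M 0 0 - M 1 1), X 0 0 - (X 0 0 - X 1 1) / (M 0 0 - M 1 1) * M 0 0, ?_⟩
      ext i j
      fin_cases i <;> fin_cases j <;> simp [h01, h10, hx01, hx10] <;> field_simp <;> ring
    · refine ⟨X 1 0 / M 1 0, X 0 0 - X 1 0 / M 1 0 * M 0 0, ?_⟩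
      have hx01 : X 0 1 = 0 := by
        rw [h01] at e00
        have : X 0 1 * M 1 0 = 0 := by linear_combination e00
        exact (mul_eq_zero.1 this).resolve_right h10
      ext i j
      fin_cases i <;> fin_cases j <;> simp [h01, hx01] <;> field_simp <;> linear_combination e10
  · refine ⟨X 0 1 / M 0 1, X 0 0 - X 0 1 / M 0 1 * M 0 0, ?_⟩
    ext i j
    fin_cases i <;> fin_cases j <;> simp <;> field_simp
    · linear_combination -e00
    · linear_combination -e01

theorem pow_unipotent (s : ℂ) {N : M2} (hN : N * N = 0) (n : ℕ) :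
    (s • (1 : M2) + N) ^ n = s ^ n • (1 : M2) + ((n : ℂ) * s ^ (n - 1)) • N := by
  induction n with
  | zero => simp
  | succ n ih =>
    rw [pow_succ, ih]
    simp only [mul_add, add_mul, smul_mul_assoc, mul_smul_comm, hN, one_mul, mul_one, smul_zero, smul_smul, add_zero,
      Nat.cast_succ, Nat.add_sub_cancel, pow_succ]
    rcases n with _ | n
    · simp [mul_comm]
    · simp only [Nat.cast_succ, Nat.add_sub_cancel, pow_succ]
      module

/-- A non-scalar matrix of finite order has two eigenvalues. -/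
theorem disc_ne_zero {M : M2} (hM : ∀ c : ℂ, M ≠ c • 1) {n : ℕ} (hn : 0 < n) (h : M ^ n = 1) :
    (M 0 0 - M 1 1) ^ 2 + 4 * (M 0 1 * M 1 0) ≠ 0 := by
  intro hd
  set s : ℂ := (M 0 0 + M 1 1) / 2 with hs
  set N : M2 := M - s • 1 with hN
  have hN2 : N * N = 0 := by
    ext i j
    fin_cases i <;> fin_cases j <;> simp [hN, hs, Matrix.mul_apply, Fin.sum_univ_two]
    · linear_combination hd / 4
    · ring
    · ring
    · linear_combination hd / 4
  have hMe : M = s • 1 + N := by rw [hN]; abel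
  rw [hMe, pow_unipotent s hN2] at h
  have hs0 : s ≠ 0 := by
    intro hs0
    have h1 : (M ^ n).det = 1 := by rw [hMe, pow_unipotent s hN2, h, Matrix.det_one]
    rw [Matrix.det_pow, Matrix.det_fin_two] at h1
    have h0 : M 0 0 * M 1 1 - M 0 1 * M 1 0 = 0 := by
      have h2 : M 0 0 + M 1 1 = 0 := by
        have := hs0
        rw [hs, div_eq_zero_iff] at this
        exact this.resolve_right two_ne_zero
      linear_combination -hd / 4 + h2 * (M 0 0 + M 1 1) / 4
    rw [h0, zero_pow hn.ne'] at h1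
    exact zero_ne_one h1
  apply hM s
  rw [hMe]
  suffices N = 0 by rw [this, add_zero]
  ext i j
  have h2 : ∀ i j, ((s ^ n • (1 : M2) + ((n : ℂ) * s ^ (n - 1)) • N) i j) = (1 : M2) i j := fun i j => by rw [h]
  have hc : ((n : ℂ) * s ^ (n - 1)) ≠ 0 := mul_ne_zero (Nat.cast_ne_zero.2 hn.ne') (pow_ne_zero _ hs0)
  have htr : N 0 0 + N 1 1 = 0 := by simp [hN, hs]; ring
  have e00 := h2 0 0
  have e11 := h2 1 1
  have e01 := h2 0 1
  have e10 := h2 1 0
  simp at e00 e11 e01 e10
  have hn00 : N 0 0 = 0 := by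
    have : ((n : ℂ) * s ^ (n - 1)) * N 0 0 = 0 := by
      linear_combination (e00 - e11 + ((n : ℂ) * s ^ (n - 1)) * htr) / 2
    exact (mul_eq_zero.1 this).resolve_left hc
  fin_cases i <;> fin_cases j <;> simp
  · exact hn00
  · exact e01.resolve_left (by push Not; exact ⟨hn.ne', fun h => absurd h hs0⟩)
  · exact e10.resolve_left (by push Not; exact ⟨hn.ne', fun h => absurd h hs0⟩)
  · linear_combination htr - hn00

/-- An affine image with the same trace and determinant. -/
theorem affine_cases {M : M2} (hd : (M 0 0 - M 1 1) ^ 2 + 4 * (M 0 1 * M 1 0) ≠ 0) {a b : ℂ}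
    (htr : (a • M + b • 1).trace = M.trace) (hdet : (a • M + b • 1).det = M.det) :
    a • M + b • 1 = M ∨ a • M + b • 1 = M.trace • 1 - M := by
  simp only [Matrix.trace_fin_two, Matrix.det_fin_two, Matrix.add_apply, Matrix.smul_apply, Matrix.one_apply_eq,
    smul_eq_mul, mul_one, Matrix.one_apply_ne (show (0 : Fin 2) ≠ 1 by decide),
    Matrix.one_apply_ne (show (1 : Fin 2) ≠ 0 by decide), mul_zero, add_zero] at htr hdet
  have hb : b = (1 - a) * (M 0 0 + M 1 1) / 2 := by linear_combination htr / 2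
  subst hb
  have h : (a ^ 2 - 1) * ((M 0 0 - M 1 1) ^ 2 + 4 * (M 0 1 * M 1 0)) = 0 := by linear_combination (-4 : ℂ) * hdet
  have ha := (mul_eq_zero.1 h).resolve_right hd
  rcases mul_eq_zero.1 (show (a - 1) * (a + 1) = 0 by linear_combination ha) with h1 | h1
  · left
    rw [sub_eq_zero.1 h1]
    simp
  · right
    rw [eq_neg_of_add_eq_zero_left h1, Matrix.trace_fin_two]
    ext i j
    fin_cases i <;> fin_cases j <;> simp <;> ring

/-- The arithmetic of three classes. -/
theorem three_classes {N a b e c₁ c₂ c₃ : ℕ} (ha : 2 ≤ a) (hab : a ≤ b) (hbe : b ≤ e) (h1 : N = 2 * c₁ * a)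
    (h2 : N = 2 * c₂ * b) (h3 : N = 2 * c₃ * e) (hs : c₁ * (a - 1) + c₂ * (b - 1) + c₃ * (e - 1) + 1 = N)
    (hne : c₃ ≠ 1) : N = 12 ∨ N = 24 ∨ N = 60 := by
  obtain ⟨a', rfl⟩ := Nat.exists_eq_add_of_le ha
  obtain ⟨b', rfl⟩ := Nat.exists_eq_add_of_le (ha.trans hab)
  obtain ⟨e', rfl⟩ := Nat.exists_eq_add_of_le (ha.trans (hab.trans hbe))
  simp only [show 2 + a' - 1 = a' + 1 by omega, show 2 + b' - 1 = b' + 1 by omega,
    show 2 + e' - 1 = e' + 1 by omega] at hs
  have k1 : c₁ * (a' + 1) + c₁ = c₁ * (2 + a') := by ring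
  have k2 : c₂ * (b' + 1) + c₂ = c₂ * (2 + b') := by ring
  have k3 : c₃ * (e' + 1) + c₃ = c₃ * (2 + e') := by ring
  have hkey : N + 2 = 2 * (c₁ + c₂ + c₃) := by nlinarith
  have ha0 : a' = 0 := by
    by_contra h
    have : c₁ * 3 ≤ c₁ * (2 + a') := Nat.mul_le_mul_left _ (by omega)
    have : c₂ * 3 ≤ c₂ * (2 + b') := Nat.mul_le_mul_left _ (by omega)
    have : c₃ * 3 ≤ c₃ * (2 + e') := Nat.mul_le_mul_left _ (by omega)
    nlinarith
  subst ha0
  rcases Nat.lt_or_ge b' 2 with hb | hb
  · interval_cases b'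
    · exfalso; omega
    · have h6 : 2 * c₃ * (2 + e') + 12 = 12 * c₃ := by omega
      have he : 1 ≤ e' := by omega
      have he4 : e' < 4 := by
        by_contra hh
        have : 2 * c₃ * 6 ≤ 2 * c₃ * (2 + e') := Nat.mul_le_mul_left _ (by omega)
        omega
      interval_cases e' <;> omega
  · exfalso
    have : c₂ * 4 ≤ c₂ * (2 + b') := Nat.mul_le_mul_left _ (by omega)
    have : c₃ * 4 ≤ c₃ * (2 + e') := Nat.mul_le_mul_left _ (by omega)
    nlinarith

section

variable {G : Type*} [Group G] [Finite G] (ρ : G →* M2)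

/-- The index of the centre, given a two dimensional faithful representation with scalars the centre. -/
theorem center_index (hinj : Function.Injective ρ) (hscal : ∀ g ∈ Subgroup.center G, ∃ c : ℂ, ρ g = c • 1)
    (hA : ∀ A : Subgroup G, IsMulCommutative A → 3 ≤ A.index) :
    (Subgroup.center G).index = 12 ∨ (Subgroup.center G).index = 24 ∨ (Subgroup.center G).index = 60 := by
  classical
  haveI := Fintype.ofFinite G
  set Z := Subgroup.center G with hZ
  have hns : ∀ g : G, g ∉ Z → ∀ c : ℂ, ρ g ≠ c • 1 := by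
    intro g hg c hc
    exact hg (Subgroup.mem_center_iff.2 fun x => hinj (by rw [map_mul, map_mul, hc]; simp))
  set cen : G → Subgroup G := fun g => Subgroup.centralizer ({g} : Set G) with hcen
  have hmemC : ∀ g x : G, x ∈ cen g ↔ x * g = g * x := fun g x => Subgroup.mem_centralizer_singleton_iff
  have hZC : ∀ g, Z ≤ cen g := fun g z hz => (hmemC g z).2 (Subgroup.mem_center_iff.1 hz g).symm
  have habel : ∀ g, g ∉ Z → ∀ x ∈ cen g, ∀ y ∈ cen g, x * y = y * x := by
    intro g hg x hx y hy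
    obtain ⟨a, b, hab⟩ := exists_affine (hns g hg) (by rw [← map_mul, (hmemC g x).1 hx, map_mul] : ρ x * ρ g = ρ g * ρ x)
    obtain ⟨a', b', hab'⟩ := exists_affine (hns g hg) (by rw [← map_mul, (hmemC g y).1 hy, map_mul] : ρ y * ρ g = ρ g * ρ y)
    apply hinj
    rw [map_mul, map_mul, hab, hab']
    simp only [mul_add, add_mul, smul_mul_assoc, mul_smul_comm, one_mul, mul_one, smul_smul]
    module
  have heq : ∀ g g', g ∉ Z → g' ∉ Z → g' ∈ cen g → cen g' = cen g := by
    intro g g' hg hg' h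
    have h1 : cen g ≤ cen g' := fun x hx => (hmemC g' x).2 (habel g hg x hx g' h)
    refine le_antisymm (fun x hx => ?_) h1
    exact (hmemC g x).2 (habel g' hg' x hx g ((hmemC g' g).2 ((hmemC g g').1 h).symm))
  -- conjugates
  set cj : G → Subgroup G → Subgroup G := fun x A => A.map (MulAut.conj x).toMonoidHom with hcj
  have hcjc : ∀ x g, cj x (cen g) = cen (x * g * x⁻¹) := by
    intro x g
    ext y
    simp only [hcj, Subgroup.mem_map]
    constructor
    · rintro ⟨w, hw, rfl⟩
      rw [hmemC] at hw ⊢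
      simp only [MulEquiv.coe_toMonoidHom, MulAut.conj_apply]
      calc x * w * x⁻¹ * (x * g * x⁻¹) = x * (w * g) * x⁻¹ := by group
        _ = x * g * x⁻¹ * (x * w * x⁻¹) := by rw [hw]; group
    · intro hy
      refine ⟨x⁻¹ * y * x, ?_, by simp [mul_assoc]⟩
      rw [hmemC] at hy ⊢
      calc x⁻¹ * y * x * g = x⁻¹ * (y * (x * g * x⁻¹)) * x := by group
        _ = g * (x⁻¹ * y * x) := by rw [hy]; group
  have hncZ : ∀ x g, g ∉ Z → x * g * x⁻¹ ∉ Z := by
    intro x g hg hz
    refine hg (Subgroup.mem_center_iff.2 fun y => ?_)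
    have h1 := Subgroup.mem_center_iff.1 hz (x * y * x⁻¹)
    have h2 := congrArg (fun t => x⁻¹ * t * x) h1
    simpa [mul_assoc] using h2
  have hcj1 : ∀ A, cj 1 A = A := fun A => by
    simp only [hcj, map_one]
    exact Subgroup.map_id A
  have hcjm : ∀ x y A, cj (x * y) A = cj x (cj y A) := fun x y A => by
    simp only [hcj, Subgroup.map_map, map_mul]
    rfl
  set orb : G → Finset (Subgroup G) := fun g => Finset.univ.image fun x => cj x (cen g) with horb
  have horb_self : ∀ g, cen g ∈ orb g := fun g => Finset.mem_image.2 ⟨1, Finset.mem_univ _, hcj1 _⟩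
  have horb_eq : ∀ g g', cen g' ∈ orb g → orb g' = orb g := by
    intro g g' h
    obtain ⟨x, -, hx⟩ := Finset.mem_image.1 h
    ext A
    simp only [horb, Finset.mem_image, Finset.mem_univ, true_and]
    constructor
    · rintro ⟨y, rfl⟩
      exact ⟨y * x, by rw [hcjm, hx]⟩
    · rintro ⟨y, rfl⟩
      exact ⟨y * x⁻¹, by rw [← hx, ← hcjm, mul_assoc, inv_mul_cancel, mul_one]⟩
  set Om : Finset G := Finset.univ.filter fun g => g ∉ Z with hOm
  set O := Om.image orb with hO
  set z := Nat.card Z with hz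
  set N := Z.index with hN
  have hzN : Fintype.card G = z * N := by rw [hz, hN, Z.card_mul_index, Nat.card_eq_fintype_card]
  have hzpos : 0 < z := Nat.card_pos
  -- each class
  have hclass : ∀ o ∈ O, ∃ c a n : ℕ, 2 ≤ a ∧ (n = 1 ∨ n = 2) ∧ N = c * n * a ∧
      (Om.filter fun g => orb g = o).card = z * (c * (a - 1)) ∧
      ((n = 1 → c = 1 → False) ∧ (n = 2 → c = 1 → False)) := by
    intro o ho
    obtain ⟨g₀, hg₀m, rfl⟩ := Finset.mem_image.1 ho
    have hg₀ : g₀ ∉ Z := (Finset.mem_filter.1 hg₀m).2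
    set A := cen g₀ with hAdef
    set NA := Subgroup.normalizer (A : Set G) with hNA
    set a := Z.relIndex A with hadef
    set n := A.relIndex NA with hndef
    have hAZ : Z ≤ A := hZC g₀
    have hAN : A ≤ NA := Subgroup.le_normalizer
    have hcardA : Nat.card A = z * a := by
      rw [hz, hadef, Subgroup.relIndex, ← Nat.card_congr (Subgroup.subgroupOfEquivOfLe hAZ).toEquiv,
        Subgroup.card_mul_index]
    have ha : 2 ≤ a := by
      by_contra hlt
      have h0 : a ≠ 0 := Subgroup.index_ne_zero_of_finite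
      have h1 : a = 1 := by omega
      exact hg₀ (Subgroup.relIndex_eq_one.1 h1 ((hmemC g₀ g₀).2 rfl))
    have hn : n = 1 ∨ n = 2 := by
      have hn0 : n ≠ 0 := Subgroup.index_ne_zero_of_finite
      suffices n ≤ 2 by omega
      have key : ∀ h ∈ NA, ρ (h * g₀ * h⁻¹) = ρ g₀ ∨ ρ (h * g₀ * h⁻¹) = (ρ g₀).trace • 1 - ρ g₀ := by
        intro h hh
        have hm : h * g₀ * h⁻¹ ∈ cen g₀ := ((Subgroup.mem_normalizer_iff.1 hh) g₀).1 ((hmemC g₀ g₀).2 rfl)
        obtain ⟨x, y, hxy⟩ := exists_affine (hns g₀ hg₀)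
          (by rw [← map_mul, (hmemC g₀ _).1 hm, map_mul] : ρ (h * g₀ * h⁻¹) * ρ g₀ = ρ g₀ * ρ (h * g₀ * h⁻¹))
        rw [hxy]
        refine affine_cases (disc_ne_zero (hns g₀ hg₀) (Nat.card_pos (α := G)) (by
          rw [← map_pow, pow_card_eq_one', map_one])) ?_ ?_
        · rw [← hxy, map_mul, map_mul, Matrix.trace_mul_cycle, ← map_mul, inv_mul_cancel, map_one, one_mul]
        · rw [← hxy, map_mul, map_mul, Matrix.det_mul, Matrix.det_mul, mul_comm (ρ h).det, mul_assoc, ← Matrix.det_mul,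
            ← map_mul, mul_inv_cancel, map_one, Matrix.det_one, mul_one]
      rw [hndef, Subgroup.relIndex, Subgroup.index]
      let f : NA ⧸ A.subgroupOf NA → Bool := fun q => decide (ρ ((q.out : G) * g₀ * (q.out : G)⁻¹) = ρ g₀)
      refine (Nat.card_le_card_of_injective f ?_).trans (by simp)
      intro q₁ q₂ hq
      rw [← QuotientGroup.out_eq' q₁, ← QuotientGroup.out_eq' q₂, QuotientGroup.eq, Subgroup.mem_subgroupOf]
      have he : (q₁.out : G) * g₀ * (q₁.out : G)⁻¹ = (q₂.out : G) * g₀ * (q₂.out : G)⁻¹ := by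
        apply hinj
        simp only [f, decide_eq_decide] at hq
        rcases key _ q₁.out.2 with h1 | h1
        · rw [h1, hq.1 h1]
        · rcases key _ q₂.out.2 with h2 | h2
          · rw [h2, hq.2 h2]
          · rw [h1, h2]
      rw [Subgroup.coe_mul, InvMemClass.coe_inv, hmemC]
      have h3 := congrArg (fun t => (q₁.out : G)⁻¹ * t * (q₂.out : G)) he
      simpa [mul_assoc] using h3.symm
    have hidx : A.index = NA.index * n := by rw [hndef, mul_comm, Subgroup.relIndex_mul_index hAN]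
    have hN' : N = NA.index * n * a := by
      rw [hN, ← Subgroup.relIndex_mul_index hAZ, ← hadef, hidx]
      ring
    have hAc : IsMulCommutative A := ⟨⟨fun x y => Subtype.ext (habel g₀ hg₀ x x.2 y y.2)⟩⟩
    refine ⟨NA.index, a, n, ha, hn, hN', ?_, fun h1 h2 => ?_, fun h1 h2 => ?_⟩
    · -- the count
      have hdisj : (Om.filter fun g => orb g = orb g₀) = (orb g₀).biUnion fun B => Finset.univ.filter fun g => g ∈ B ∧ g ∉ Z := by
        ext g
        simp only [hOm, Finset.mem_filter, Finset.mem_univ, true_and, Finset.mem_biUnion]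
        constructor
        · rintro ⟨hg, he⟩
          exact ⟨cen g, he ▸ horb_self g, (hmemC g g).2 rfl, hg⟩
        · rintro ⟨B, hB, hgB, hg⟩
          obtain ⟨x, -, rfl⟩ := Finset.mem_image.1 hB
          rw [hcjc] at hgB
          refine ⟨hg, horb_eq g₀ g ?_⟩
          rw [heq _ g (hncZ x g₀ hg₀) hg hgB, ← hcjc]
          exact Finset.mem_image.2 ⟨x, Finset.mem_univ _, rfl⟩
      rw [hdisj, Finset.card_biUnion]
      swap
      · intro B hB B' hB' hne
        refine Finset.disjoint_left.2 fun g hg hg' => hne ?_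
        simp only [Finset.mem_filter, Finset.mem_univ, true_and] at hg hg'
        obtain ⟨x, -, rfl⟩ := Finset.mem_image.1 hB
        obtain ⟨y, -, rfl⟩ := Finset.mem_image.1 hB'
        rw [hcjc] at hg hg' ⊢
        rw [hcjc]
        exact (heq _ g (hncZ x g₀ hg₀) hg.2 hg.1).symm.trans (heq _ g (hncZ y g₀ hg₀) hg'.2 hg'.1)
      have hsize : ∀ B ∈ orb g₀, (Finset.univ.filter fun g => g ∈ B ∧ g ∉ Z).card = z * (a - 1) := by
        intro B hB
        obtain ⟨x, -, rfl⟩ := Finset.mem_image.1 hB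
        have hle : Z ≤ cj x A := by rw [hcjc]; exact hZC _
        have hc : Nat.card (cj x A) = z * a := by
          rw [← hcardA]; exact Subgroup.card_map_of_injective (MulEquiv.injective _)
        rw [show (Finset.univ.filter fun g => g ∈ cj x A ∧ g ∉ Z) =
            (Finset.univ.filter fun g => g ∈ cj x A) \ (Finset.univ.filter fun g => g ∈ Z) by ext g; simp,
          Finset.card_sdiff_of_subset (fun g hg => by simp at hg ⊢; exact hle hg), ← Fintype.card_subtype, ← Fintype.card_subtype,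
          ← Nat.card_eq_fintype_card, ← Nat.card_eq_fintype_card]
        change Nat.card (cj x A) - Nat.card Z = _
        rw [hc, ← hz, Nat.mul_sub_one]
      rw [Finset.sum_congr rfl hsize, Finset.sum_const, smul_eq_mul]
      have horbc : (orb g₀).card = NA.index := by
        rw [Subgroup.index, Nat.card_eq_fintype_card, ← Finset.card_univ]
        refine (Finset.card_bij (fun q _ => cj (Quotient.out q) A) (fun q _ => Finset.mem_image.2 ⟨_, Finset.mem_univ _, rfl⟩)
          ?_ ?_).symm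
        · intro q _ q' _ h
          rw [← QuotientGroup.out_eq' q, ← QuotientGroup.out_eq' q', QuotientGroup.eq]
          refine Subgroup.mem_normalizer_iff_map_conj_eq.2 ?_
          change cj _ A = A
          rw [hcjm, ← h, ← hcjm, inv_mul_cancel, hcj1]
        · intro B hB
          obtain ⟨x, -, rfl⟩ := Finset.mem_image.1 hB
          refine ⟨(x : G ⧸ NA), Finset.mem_univ _, ?_⟩
          obtain ⟨t, ht⟩ := QuotientGroup.mk_out_eq_mul NA x
          rw [ht, hcjm]
          congr 1
          exact Subgroup.mem_normalizer_iff_map_conj_eq.1 t.2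
      rw [horbc]
      ring
    · have := hA A hAc
      rw [hidx, h1, h2] at this
      omega
    · have := hA A hAc
      rw [hidx, h1, h2] at this
      omega
  choose c a n ha hn hNeq hcard hne using hclass
  have hsum : ∑ o : O, c o.1 o.2 * (a o.1 o.2 - 1) + 1 = N := by
    have h1 := Finset.card_eq_sum_card_fiberwise (f := orb) (s := Om) (t := O) (fun g hg => Finset.mem_image_of_mem _ hg)
    rw [← Finset.sum_coe_sort O, Finset.sum_congr rfl (fun o _ => hcard o.1 o.2), ← Finset.mul_sum] at h1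
    have h2 : Om.card = z * N - z := by
      rw [hOm, Finset.filter_not, Finset.card_sdiff_of_subset (Finset.filter_subset _ _), Finset.card_univ, hzN,
        ← Fintype.card_subtype, ← Nat.card_eq_fintype_card]
    rw [h2, ← Nat.mul_sub_one] at h1
    have h3 := Nat.eq_of_mul_eq_mul_left hzpos h1
    have : N ≠ 0 := Subgroup.index_ne_zero_of_finite
    omega
  -- each term is at least a quarter
  have hq : ∀ o : O, N ≤ 4 * (c o.1 o.2 * (a o.1 o.2 - 1)) ∧ (n o.1 o.2 = 1 → N ≤ 2 * (c o.1 o.2 * (a o.1 o.2 - 1))) := by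
    rintro ⟨o, ho⟩
    have h1 := hNeq o ho
    have h2 := ha o ho
    obtain ⟨a', ha'⟩ := Nat.exists_eq_add_of_le h2
    simp only [ha', show 2 + a' - 1 = a' + 1 by omega] at h1 ⊢
    rcases hn o ho with h3 | h3 <;> rw [h3] at h1 <;> rw [h1] <;> refine ⟨by nlinarith, fun h => ?_⟩
    · nlinarith
    · omega
  have hcpos : ∀ o : O, 1 ≤ c o.1 o.2 ∧ c o.1 o.2 ≠ 1 := by
    rintro ⟨o, ho⟩
    refine ⟨Nat.one_le_iff_ne_zero.2 fun h0 => ?_, fun h1 => ?_⟩
    · have := hNeq o ho
      rw [h0] at this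
      have h4 : N ≠ 0 := Subgroup.index_ne_zero_of_finite
      simp at this
      exact h4 this
    · rcases hn o ho with h3 | h3
      exacts [(hne o ho).1 h3 h1, (hne o ho).2 h3 h1]
  have hNpos : 1 ≤ N := Nat.one_le_iff_ne_zero.2 Subgroup.index_ne_zero_of_finite
  have hs3 : Fintype.card O ≤ 3 := by
    by_contra hgt
    have h1 : Fintype.card O * N ≤ 4 * ∑ o : O, c o.1 o.2 * (a o.1 o.2 - 1) := by
      rw [Finset.mul_sum, ← smul_eq_mul, ← Finset.card_univ, ← Finset.sum_const]
      exact Finset.sum_le_sum fun o _ => (hq o).1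
    nlinarith
  obtain ⟨s, hs, ⟨e⟩⟩ : ∃ s, s = Fintype.card O ∧ Nonempty (Fin s ≃ O) := ⟨_, rfl, ⟨(Fintype.equivFin O).symm⟩⟩
  rw [← hs] at hs3
  rw [← e.sum_comp] at hsum
  interval_cases s
  · simp only [Finset.univ_eq_empty, Finset.sum_empty, zero_add] at hsum
    exfalso
    have hG : IsMulCommutative (⊤ : Subgroup G) := by
      refine ⟨⟨fun x y => Subtype.ext ?_⟩⟩
      have : Z = ⊤ := Subgroup.index_eq_one.1 hsum.symm
      have hy : (y : G) ∈ Z := by rw [this]; trivial
      exact Subgroup.mem_center_iff.1 hy x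
    have := hA ⊤ hG
    rw [Subgroup.index_top] at this
    omega
  · rw [Fin.sum_univ_one] at hsum
    exfalso
    have h1 := hNeq _ (e 0).2
    obtain ⟨a', ha'⟩ := Nat.exists_eq_add_of_le (ha _ (e 0).2)
    have hc := hcpos (e 0)
    rw [ha', show 2 + a' - 1 = a' + 1 by omega] at hsum
    rw [ha'] at h1
    rcases hn _ (e 0).2 with h3 | h3 <;> rw [h3] at h1 <;> exact hc.2 (by nlinarith)
  · rw [Fin.sum_univ_two] at hsum
    -- reduce to `n = 1` first
    have key : ∀ (c₁ a₁ n₁ c₂ a₂ n₂ : ℕ), 2 ≤ a₁ → 2 ≤ a₂ → n₁ = 1 → (n₂ = 1 ∨ n₂ = 2) → N = c₁ * n₁ * a₁ →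
        N = c₂ * n₂ * a₂ → c₁ * (a₁ - 1) + c₂ * (a₂ - 1) + 1 = N → c₂ ≠ 1 →
        N = 12 ∨ N = 24 ∨ N = 60 := by
      intro c₁ a₁ n₁ c₂ a₂ n₂ h1 h2 h3 h4 h5 h6 h7 h8
      obtain ⟨x, rfl⟩ := Nat.exists_eq_add_of_le h1
      obtain ⟨y, rfl⟩ := Nat.exists_eq_add_of_le h2
      simp only [show 2 + x - 1 = x + 1 by omega, show 2 + y - 1 = y + 1 by omega] at h7
      subst h3
      have hc2 : c₂ ≠ 0 := fun h => by rw [h] at h6; simp at h6; omega
      rcases h4 with rfl | rfl
      · exfalso; nlinarith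
      have hx : x < 2 := by
        by_contra hx
        have : c₁ * 4 ≤ c₁ * (2 + x) := Nat.mul_le_mul_left _ (by omega)
        have : c₂ * 2 ≤ c₂ * (2 + y) := Nat.mul_le_mul_left _ (by omega)
        nlinarith
      interval_cases x
      · exact absurd (by nlinarith) h8
      · have : c₂ * (3 - (2 + y)) = 3 ∨ 2 ≤ y := by
          rcases Nat.lt_or_ge y 2 with hy | hy
          · left; interval_cases y <;> omega
          · exact Or.inr hy
        rcases Nat.lt_or_ge y 2 with hy | hy
        · interval_cases y <;> omega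
        · exfalso
          have : c₂ * 4 ≤ c₂ * (2 + y) := Nat.mul_le_mul_left _ (by omega)
          nlinarith
    rcases hn _ (e 0).2 with h0 | h0
    · exact key _ _ _ _ _ _ (ha _ (e 0).2) (ha _ (e 1).2) h0 (hn _ (e 1).2) (hNeq _ (e 0).2) (hNeq _ (e 1).2) hsum (hcpos (e 1)).2
    rcases hn _ (e 1).2 with h1 | h1
    · exact key _ _ _ _ _ _ (ha _ (e 1).2) (ha _ (e 0).2) h1 (hn _ (e 0).2) (hNeq _ (e 1).2) (hNeq _ (e 0).2) (by omega) (hcpos (e 0)).2
    exfalso
    have g1 := hNeq _ (e 0).2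
    have g2 := hNeq _ (e 1).2
    obtain ⟨x, hx⟩ := Nat.exists_eq_add_of_le (ha _ (e 0).2)
    obtain ⟨y, hy⟩ := Nat.exists_eq_add_of_le (ha _ (e 1).2)
    rw [hx, hy, show 2 + x - 1 = x + 1 by omega, show 2 + y - 1 = y + 1 by omega] at hsum
    rw [h0, hx] at g1
    rw [h1, hy] at g2
    have := (hcpos (e 0)).1
    have := (hcpos (e 1)).1
    nlinarith
  · rw [Fin.sum_univ_three] at hsum
    have h2 : ∀ i, n _ (e i).2 = 2 := by
      intro i
      refine (hn _ (e i).2).resolve_left fun h => ?_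
      have h0 := hq (e 0)
      have h1 := hq (e 1)
      have h2 := hq (e 2)
      fin_cases i
      · have := h0.2 h; have := h1.1; have := h2.1; omega
      · have := h1.2 h; have := h0.1; have := h2.1; omega
      · have := h2.2 h; have := h0.1; have := h1.1; omega
    have hN2 : ∀ i, N = 2 * c _ (e i).2 * a _ (e i).2 := fun i => by
      have := hNeq _ (e i).2
      rw [h2 i] at this
      rw [this]; ring
    have main : ∀ i j k : Fin 3, a _ (e i).2 ≤ a _ (e j).2 → a _ (e j).2 ≤ a _ (e k).2 →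
        c _ (e i).2 * (a _ (e i).2 - 1) + c _ (e j).2 * (a _ (e j).2 - 1) + c _ (e k).2 * (a _ (e k).2 - 1) + 1 = N →
        N = 12 ∨ N = 24 ∨ N = 60 := fun i j k h1 h2 h3 =>
      three_classes (ha _ (e i).2) h1 h2 (hN2 i) (hN2 j) (hN2 k) h3 (hcpos (e k)).2
    rcases le_total (a _ (e 0).2) (a _ (e 1).2) with h01 | h01 <;>
      rcases le_total (a _ (e 1).2) (a _ (e 2).2) with h12 | h12 <;>
      rcases le_total (a _ (e 0).2) (a _ (e 2).2) with h02 | h02
    all_goals first
      | exact main 0 1 2 h01 h12 (by omega)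
      | exact main 0 2 1 h02 h12 (by omega)
      | exact main 2 0 1 h02 h01 (by omega)
      | exact main 1 0 2 h01 h02 (by omega)
      | exact main 1 2 0 h12 h02 (by omega)
      | exact main 2 1 0 h12 h01 (by omega)

end

end CfsgLib.LinearTwo
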